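/-
Commuting Majorana involutions: the two possible algebras generated by their axes (helper18).
-/
import Mathlib
import Cfsg.Prelude.Def_AxialAlgebras

set_option autoImplicit false

namespace Cfsg.Agent.Lib.Majorana

open Cfsg Cfsg.Axial

variable {V : Type*} [AddCommGroup V] [Module ℝ V]
variable {mul : V →ₗ[ℝ] V →ₗ[ℝ] V} {B : LinearMap.BilinForm ℝ V}

theorem mem_eigen {a v : V} {c : ℝ} : v ∈ eigen mul a c ↔ mul a v = c • v := by
  rw [eigen, Module.End.mem_eigenspace_iff]

theorem eigen_map (φ : V ≃ₗ[ℝ] V) (hφ : ∀ u v : V, φ (mul u v) = mul (φ u) (φ v)) (a : V) (c : ℝ) :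
    eigen mul (φ a) c = (eigen mul a c).map (φ : V →ₗ[ℝ] V) := by
  ext v
  rw [Submodule.mem_map_equiv, mem_eigen, mem_eigen]
  constructor
  · intro h
    apply φ.injective
    rw [hφ, map_smul, LinearEquiv.apply_symm_apply, h]
  · intro h
    have h1 := congrArg φ h
    rw [hφ, map_smul, LinearEquiv.apply_symm_apply] at h1
    exact h1

theorem eigenSum_map (φ : V ≃ₗ[ℝ] V) (hφ : ∀ u v : V, φ (mul u v) = mul (φ u) (φ v)) (a : V) (S : Set ℝ) :
    eigenSum mul (φ a) S = (eigenSum mul a S).map (φ : V →ₗ[ℝ] V) := by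
  simp only [eigenSum, Submodule.map_iSup, eigen_map φ hφ]

/-- Transport of a Majorana pair by a commuting automorphism. -/
theorem pair_transport {μ φ : V ≃ₗ[ℝ] V} {a : V} (h : IsMajoranaPair mul B μ a)
    (hφ : ∀ u v : V, φ (mul u v) = mul (φ u) (φ v)) (hc : φ * μ = μ * φ) :
    IsMajoranaPair mul B μ (φ a) := by
  obtain ⟨h1, h2, ⟨⟨h3, h4, h5, h6⟩, h7⟩, h8, h9⟩ := h
  have hc' : ∀ v, φ (μ v) = μ (φ v) := fun v => by
    have := congrArg (fun f : V ≃ₗ[ℝ] V => f v) hc
    exact this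
  refine ⟨h1, h2, ⟨⟨?_, ?_, ?_, ?_⟩, ?_⟩, ?_, ?_⟩
  · intro h0
    apply h3
    apply φ.injective
    rw [h0, map_zero]
  · rw [← hφ, h4]
  · rw [eigenSum_map φ hφ, h5, Submodule.map_top, LinearEquiv.range]
  · intro c hc1 d hd u hu v hv
    rw [eigen_map φ hφ] at hu hv
    obtain ⟨u', hu', rfl⟩ := Submodule.mem_map.mp hu
    obtain ⟨v', hv', rfl⟩ := Submodule.mem_map.mp hv
    rw [eigenSum_map φ hφ]
    show mul (φ u') (φ v') ∈ _
    rw [← hφ]
    exact Submodule.mem_map_of_mem (h6 c hc1 d hd u' hu' v' hv')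
  · rw [eigen_map φ hφ, h7, Submodule.map_span, Set.image_singleton]
    rfl
  · intro v hv
    rw [eigenSum_map φ hφ] at hv
    obtain ⟨v', hv', rfl⟩ := Submodule.mem_map.mp hv
    show μ (φ v') = φ v'
    rw [← hc']
    congr 1
    exact h8 v' hv'
  · intro v hv
    rw [eigen_map φ hφ] at hv
    obtain ⟨v', hv', rfl⟩ := Submodule.mem_map.mp hv
    show μ (φ v') = -φ v'
    rw [← hc']
    have : μ v' = -v' := h9 v' hv'
    rw [this, map_neg]

theorem eigenSum_four (a : V) :
    eigenSum mul a majoranaSpectrum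
      = eigen mul a 1 ⊔ (eigen mul a 0 ⊔ (eigen mul a (1 / 4) ⊔ eigen mul a (1 / 32))) := by
  simp only [eigenSum, majoranaSpectrum, iSup_insert, iSup_singleton]

theorem eigenSum_three (a : V) :
    eigenSum mul a {1, 0, 1 / 4} = eigen mul a 1 ⊔ (eigen mul a 0 ⊔ eigen mul a (1 / 4)) := by
  simp only [eigenSum, iSup_insert, iSup_singleton]

/-- A fixed vector decomposes into three eigencomponents. -/
theorem decomp {μ : V ≃ₗ[ℝ] V} {a b : V} (h : IsMajoranaPair mul B μ a) (hb : μ b = b) :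
    ∃ (c : ℝ) (x y : V), b = c • a + x + y ∧ mul a x = 0 ∧ mul a y = (1 / 4 : ℝ) • y := by
  obtain ⟨h1, h2, ⟨⟨h3, h4, h5, h6⟩, h7⟩, h8, h9⟩ := h
  have hmem : b ∈ eigenSum mul a majoranaSpectrum := by
    rw [h5]
    exact Submodule.mem_top
  rw [eigenSum_four] at hmem
  obtain ⟨p, hp, q, hq, rfl⟩ := Submodule.mem_sup.mp hmem
  obtain ⟨x, hx, q', hq', rfl⟩ := Submodule.mem_sup.mp hq
  obtain ⟨y, hy, z, hz, rfl⟩ := Submodule.mem_sup.mp hq'
  rw [h7] at hp
  obtain ⟨c, rfl⟩ := Submodule.mem_span_singleton.mp hp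
  have hp' : c • a ∈ eigen mul a 1 := by
    rw [h7]
    exact Submodule.smul_mem _ _ (Submodule.mem_span_singleton_self a)
  have hw : c • a + (x + y) ∈ eigenSum mul a {1, 0, 1 / 4} := by
    rw [eigenSum_three]
    exact Submodule.add_mem_sup hp' (Submodule.add_mem_sup hx hy)
  have e1 : μ (c • a + (x + y)) = c • a + (x + y) := h8 _ hw
  have e2 : μ z = -z := h9 z hz
  have e3 : c • a + (x + (y + z)) = (c • a + (x + y)) + z := by abel
  rw [e3, map_add, e1, e2] at hb
  have hz0 : z = 0 := by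
    have h10 := add_left_cancel hb
    have h11 : (2 : ℝ) • z = 0 := by
      rw [two_smul]
      nth_rewrite 1 [← h10]
      rw [neg_add_cancel]
    simpa using h11
  subst hz0
  refine ⟨c, x, y, by abel, ?_, ?_⟩
  · have := mem_eigen.mp hx
    simpa using this
  · exact mem_eigen.mp hy

/-- Vectors in the `1/4` eigenspace and in the sum of the `1` and `0` eigenspaces vanish. -/
theorem eq_zero_of_eigen {a w p q : V} (hw : mul a w = (1 / 4 : ℝ) • w) (hp : mul a p = p) (hq : mul a q = 0)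
    (h : w = p + q) : w = 0 := by
  -- apply the product twice
  have h1 : (1 / 4 : ℝ) • (p + q) = p := by
    have := hw
    rw [h, map_add, hp, hq, add_zero] at this
    exact this.symm
  have h2 : mul a q = mul a ((3 : ℝ) • p) := by
    have h3 : q = (3 : ℝ) • p := by
      have h4 : (4 : ℝ) • ((1 / 4 : ℝ) • (p + q)) = (4 : ℝ) • p := by rw [h1]
      rw [smul_smul] at h4
      norm_num at h4
      have h5 : q = (4 : ℝ) • p - p := by rw [← h4]; abel
      rw [h5]
      module
    rw [← h3]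
  rw [hq, map_smul, hp] at h2
  have hp0 : p = 0 := by
    have := h2.symm
    simpa using this
  subst hp0
  have hq0 : q = 0 := by
    have := h1
    simpa using this
  rw [h, hq0, add_zero]

theorem law_00 : monsterLaw (1 / 4 : ℝ) (1 / 32) 0 0 = {0} := by
  unfold monsterLaw
  norm_num

theorem law_0q : monsterLaw (1 / 4 : ℝ) (1 / 32) 0 (1 / 4) = {1 / 4} := by
  unfold monsterLaw
  norm_num

theorem law_qq : monsterLaw (1 / 4 : ℝ) (1 / 32) (1 / 4) (1 / 4) = {1, 0} := by
  unfold monsterLaw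
  norm_num

theorem eigenSum_single (a : V) (c : ℝ) : eigenSum mul a {c} = eigen mul a c := by
  simp only [eigenSum, iSup_singleton]

theorem eigenSum_pair (a : V) (c d : ℝ) : eigenSum mul a {c, d} = eigen mul a c ⊔ eigen mul a d := by
  simp only [eigenSum, iSup_insert, iSup_singleton]

/-- The basic relations attached to a Majorana pair and a fixed idempotent. -/
theorem core {μ : V ≃ₗ[ℝ] V} {a b : V} (hV : IsMajoranaAmbient mul B) (h : IsMajoranaPair mul B μ a)
    (hn : B a a = 1) (hb : μ b = b) (hbb : mul b b = b) :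
    mul a (mul a b) = (1 / 4 : ℝ) • mul a b + (3 / 4 * B a b) • a ∧
    (16 : ℝ) • mul (mul a b) (mul a b) = (4 : ℝ) • mul b (mul a b) + (4 * B a b - 2) • mul a b
      + (2 * B a b + 8 * B a b ^ 2) • a ∧
    (B a b = 0 → mul a b = 0) := by
  obtain ⟨c, x, y, e, hx, hy⟩ := decomp h hb
  obtain ⟨hcomm, hsym, hpos, hfrob, -⟩ := hV
  obtain ⟨h1, h2, ⟨⟨h3, h4, h5, h6⟩, h7⟩, h8, h9⟩ := h
  have hax : B a x = 0 := by
    have := hfrob a a x
    rw [h4, hx, map_zero] at this
    exact this.symm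
  have hay : B a y = 0 := by
    have := hfrob a a y
    rw [h4, hy, map_smul] at this
    have h10 : B a y = (1 / 4 : ℝ) * B a y := by simpa using this.symm
    linarith
  have hc : B a b = c := by
    rw [e]
    simp only [map_add, map_smul, smul_eq_mul, hn, hax, hay]
    ring
  have hv : mul a b = c • a + (1 / 4 : ℝ) • y := by
    rw [e]
    simp only [map_add, map_smul, h4, hx, hy]
    abel
  -- fusion
  have mx : x ∈ eigen mul a 0 := mem_eigen.mpr (by rw [hx, zero_smul])
  have my : y ∈ eigen mul a (1 / 4) := mem_eigen.mpr hy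
  have S0 : (0 : ℝ) ∈ majoranaSpectrum := by simp [majoranaSpectrum]
  have S4 : (1 / 4 : ℝ) ∈ majoranaSpectrum := by simp [majoranaSpectrum]
  have fxx := h6 0 S0 0 S0 x mx x mx
  have fxy := h6 0 S0 (1 / 4) S4 x mx y my
  have fyy := h6 (1 / 4) S4 (1 / 4) S4 y my y my
  rw [law_00, eigenSum_single, mem_eigen, zero_smul] at fxx
  rw [law_0q, eigenSum_single, mem_eigen] at fxy
  rw [law_qq, eigenSum_pair] at fyy
  obtain ⟨p, hp, q, hq, hpq⟩ := Submodule.mem_sup.mp fyy
  rw [mem_eigen, one_smul] at hp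
  rw [mem_eigen, zero_smul] at hq
  -- the component of the idempotent equation
  have hmul : mul x y = ((1 / 2 : ℝ) * (1 - c / 2)) • y := by
    have h10 : mul b b = c • c • a + (c * (1 / 4) * 2) • y + mul x x + mul y y + (2 : ℝ) • mul x y := by
      rw [e]
      have hxa : mul x a = 0 := by rw [hcomm, hx]
      have hya : mul y a = (1 / 4 : ℝ) • y := by rw [hcomm, hy]
      have hyx : mul y x = mul x y := hcomm _ _
      simp only [map_add, map_smul, LinearMap.add_apply, LinearMap.smul_apply, h4, hx, hy, hxa, hya, hyx]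
      module
    rw [hbb] at h10
    -- the vector in the `1/4` eigenspace
    let w : V := y - ((c / 2 : ℝ)) • y - (2 : ℝ) • mul x y
    have hw : mul a w = (1 / 4 : ℝ) • w := by
      simp only [w, map_sub, map_smul, hy, fxy]
      module
    let P : V := (c * c - c) • a + p
    let R : V := mul x x + q - x
    have hP : mul a P = P := by
      simp only [P, map_add, map_smul, h4, hp]
    have hR : mul a R = 0 := by
      simp only [R, map_add, map_sub, fxx, hq, hx]
      abel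
    have hwPR : w = P + R := by
      have h11 : b = c • c • a + (c * (1 / 4) * 2) • y + mul x x + (p + q) + (2 : ℝ) • mul x y := by
        rw [h10, hpq]
      have h12 := h11
      rw [e] at h12
      simp only [w, P, R]
      linear_combination (norm := module) h12
    have hw0 : y - ((c / 2 : ℝ)) • y - (2 : ℝ) • mul x y = 0 := eq_zero_of_eigen hw hP hR hwPR
    linear_combination (norm := module) (-(1 / 2 : ℝ)) • hw0
  have hya : mul y a = (1 / 4 : ℝ) • y := by rw [hcomm, hy]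
  have hyx : mul y x = mul x y := hcomm _ _
  have hxa : mul x a = 0 := by rw [hcomm, hx]
  rw [hc, hv]
  refine ⟨?_, ?_, ?_⟩
  · simp only [map_add, map_smul, h4, hy]
    module
  · have hbv : mul b (c • a + (1 / 4 : ℝ) • y)
        = (c * c) • a + (c / 16 + c / 4) • y + (1 / 4 : ℝ) • mul x y + (1 / 4 : ℝ) • mul y y := by
      rw [e]
      simp only [map_add, map_smul, LinearMap.add_apply, LinearMap.smul_apply, h4, hy, hxa, hya, hyx, hx]
      module
    have hvv : mul (c • a + (1 / 4 : ℝ) • y) (c • a + (1 / 4 : ℝ) • y)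
        = (c * c) • a + (c / 8) • y + (1 / 16 : ℝ) • mul y y := by
      simp only [map_add, map_smul, LinearMap.add_apply, LinearMap.smul_apply, h4, hy, hya]
      module
    rw [hbv, hvv, hmul]
    module
  · intro h0
    subst h0
    have hyx2 : B y x = 0 := by
      have h10 := hfrob y a x
      rw [hx, map_zero, hya] at h10
      have h11 : (1 / 4 : ℝ) * B y x = 0 := by
        have := h10.symm
        simpa using this
      linarith
    have h12 := hfrob a b b
    rw [hbb, hc, hv] at h12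
    have h13 : b = x + y := by
      rw [e]
      simp
    rw [h13] at h12
    simp only [zero_smul, zero_add, map_add, map_smul, LinearMap.smul_apply, smul_eq_mul, hyx2] at h12
    have h14 : B y y = 0 := by linarith
    have h15 : y = 0 := by
      by_contra h16
      have := hpos y h16
      linarith
    rw [h15]
    simp

/-- Commuting Majorana involutions. -/
theorem commuting (hV : IsMajoranaAmbient mul B) (μ₀ μ₁ : V ≃ₗ[ℝ] V) (a₀ a₁ : V)
    (h₀ : IsMajoranaPair mul B μ₀ a₀) (h₁ : IsMajoranaPair mul B μ₁ a₁)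
    (hu₀ : ∀ a : V, IsMajoranaPair mul B μ₀ a → a = a₀) (hu₁ : ∀ a : V, IsMajoranaPair mul B μ₁ a → a = a₁)
    (hn₀ : B a₀ a₀ = 1) (hn₁ : B a₁ a₁ = 1) (hc : μ₀ * μ₁ = μ₁ * μ₀) (hne : a₀ ≠ a₁) :
    (B a₀ a₁ = 0 ∧ mul a₀ a₁ = 0) ∨
      (B a₀ a₁ = 1 / 8 ∧ mul (a₀ + a₁ - (8 : ℝ) • mul a₀ a₁) (a₀ + a₁ - (8 : ℝ) • mul a₀ a₁) = a₀ + a₁ - (8 : ℝ) • mul a₀ a₁ ∧
        mul a₀ (a₀ + a₁ - (8 : ℝ) • mul a₀ a₁) = (1 / 8 : ℝ) • (a₀ + (a₀ + a₁ - (8 : ℝ) • mul a₀ a₁) - a₁) ∧
        mul a₁ (a₀ + a₁ - (8 : ℝ) • mul a₀ a₁) = (1 / 8 : ℝ) • (a₁ + (a₀ + a₁ - (8 : ℝ) • mul a₀ a₁) - a₀)) := by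
  have hfix0 : μ₀ a₁ = a₁ := hu₁ _ (pair_transport h₁ h₀.1 hc)
  have hfix1 : μ₁ a₀ = a₀ := hu₀ _ (pair_transport h₀ h₁.1 hc.symm)
  have id0 : mul a₀ a₀ = a₀ := h₀.2.2.1.1.2.1
  have id1 : mul a₁ a₁ = a₁ := h₁.2.2.1.1.2.1
  obtain ⟨A1, A2, A3⟩ := core hV h₀ hn₀ hfix0 id1
  obtain ⟨B1, B2, -⟩ := core hV h₁ hn₁ hfix1 id0
  have hcomm : mul a₁ a₀ = mul a₀ a₁ := hV.1 _ _
  have hsym : B a₁ a₀ = B a₀ a₁ := hV.2.1 _ _
  rw [hcomm, hsym] at B1 B2
  set v := mul a₀ a₁ with hv
  set l := B a₀ a₁ with hl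
  have A2' : (16 : ℝ) • mul v v = (4 * l - 1) • v + (3 * l) • a₁ + (2 * l + 8 * l ^ 2) • a₀ := by
    rw [A2, B1]
    module
  have B2' : (16 : ℝ) • mul v v = (4 * l - 1) • v + (3 * l) • a₀ + (2 * l + 8 * l ^ 2) • a₁ := by
    rw [B2, A1]
    module
  have hdiff : (l * (1 - 8 * l)) • (a₁ - a₀) = 0 := by
    have h1 := A2'.symm.trans B2'
    linear_combination (norm := module) h1
  have hl2 : l * (1 - 8 * l) = 0 := by
    rcases smul_eq_zero.mp hdiff with h | h
    · exact h
    · exact absurd (sub_eq_zero.mp h).symm hne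
  rcases mul_eq_zero.mp hl2 with h0 | h8
  · exact Or.inl ⟨h0, A3 h0⟩
  · right
    have hl8 : l = 1 / 8 := by linarith
    rw [hl8] at A1 B1 A2'
    have hvv : mul v v = (-(1 / 32) : ℝ) • v + (3 / 128 : ℝ) • a₁ + (3 / 128 : ℝ) • a₀ := by
      have h2 : (16 : ℝ)⁻¹ • ((16 : ℝ) • mul v v) = mul v v := by
        rw [smul_smul]
        norm_num
      rw [← h2, A2']
      module
    have hva : mul v a₀ = mul a₀ v := hV.1 _ _
    have hvb : mul v a₁ = mul a₁ v := hV.1 _ _
    have hba : mul a₁ a₀ = v := hcomm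
    refine ⟨hl8, ?_, ?_, ?_⟩
    · simp only [map_add, map_sub, map_smul, LinearMap.add_apply, LinearMap.sub_apply, LinearMap.smul_apply,
        id0, id1, ← hv, hba, hva, hvb, hvv, A1, B1]
      module
    · simp only [map_add, map_sub, map_smul, id0, ← hv, A1]
      module
    · simp only [map_add, map_sub, map_smul, id1, hba, B1]
      module

end Cfsg.Agent.Lib.Majorana
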